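import Cfsg.Agent.H4.Ch.Mu

/-! Orders and minimal degrees of doubly transitive groups. -/

set_option autoImplicit false
set_option linter.unusedSectionVars false
set_option linter.unusedVariables false
set_option linter.unusedSimpArgs false

namespace Cfsg.Agent.H4.Ch

open MulAction Finset Equiv Cfsg.Agent.H3.Ch

section abstract
variable {X Ω : Type} [Group X] [Finite X] [MulAction X Ω] [Finite Ω]

theorem stepc (H : Subgroup X) (ω : Ω) : Nat.card H ≤ Nat.card ↥(H ⊓ stabilizer X ω) * Nat.card Ω := by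
  have e := (stabilizer H ω).card_mul_index
  have e1 : Nat.card (stabilizer H ω) = Nat.card ↥(H ⊓ stabilizer X ω) :=
    Nat.card_congr ⟨fun x => ⟨x.1.1, x.1.2, x.2⟩, fun x => ⟨⟨x.1, x.2.1⟩, x.2.2⟩, fun _ => rfl, fun _ => rfl⟩
  rw [← e, e1, index_stabilizer]
  exact Nat.mul_le_mul_left _ (Set.ncard_le_card _)

theorem basec {μ : ℕ} (h : MD X Ω μ) (h1 : 1 ≤ μ) :
    Nat.card X ≤ (Nat.card Ω).descFactorial (Nat.card Ω + 1 - μ) := by
  classical
  have := Fintype.ofFinite Ω
  have key : ∀ s : Finset Ω, ∃ H : Subgroup X, Nat.card X ≤ Nat.card H * (Nat.card Ω).descFactorial s.card ∧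
      ∀ g ∈ H, ∀ ω ∈ s, g • ω = ω := fun s => by
    induction s using Finset.induction_on with
    | empty => exact ⟨⊤, by simp, by simp⟩
    | insert ω s hs ih =>
      obtain ⟨H, e, f⟩ := ih
      refine ⟨H ⊓ stabilizer X ω, e.trans ?_, fun g hg a ha => ?_⟩
      · have e0 := (stabilizer H ω).card_mul_index
        have e1 : Nat.card (stabilizer H ω) = Nat.card ↥(H ⊓ stabilizer X ω) :=
          Nat.card_congr ⟨fun x => ⟨x.1.1, x.1.2, x.2⟩, fun x => ⟨⟨x.1, x.2.1⟩, x.2.2⟩, fun _ => rfl, fun _ => rfl⟩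
        rw [card_insert_of_notMem hs, Nat.descFactorial_succ, ← mul_assoc, ← e0, e1, index_stabilizer]
        refine Nat.mul_le_mul_right _ (Nat.mul_le_mul_left _ ?_)
        rw [Nat.card_eq_fintype_card, ← card_compl, ← Set.ncard_coe_finset]
        refine Set.ncard_le_ncard ?_
        rintro _ ⟨g, rfl⟩
        simp only [coe_compl, Set.mem_compl_iff, mem_coe]
        intro hg
        have := f _ (g⁻¹).2 _ hg
        rw [show (g⁻¹).1 • g • ω = ω from inv_smul_smul g ω] at this
        exact hs (this ▸ hg)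
      · rcases mem_insert.1 ha with rfl | ha
        exacts [hg.2, f g hg.1 a ha]
  obtain ⟨s, -, hs⟩ := exists_subset_card_eq (s := (univ : Finset Ω)) (n := Nat.card Ω + 1 - μ)
    (by rw [card_univ, Nat.card_eq_fintype_card]; omega)
  obtain ⟨H, e, f⟩ := key s
  obtain rfl : H = ⊥ := eq_bot_iff.2 fun g hg => by
    by_contra g1
    have h2 := h g g1
    have h3 : sp Ω g ≤ (sᶜ).card := by
      rw [sp, ← Set.ncard_coe_finset]
      exact Set.ncard_le_ncard fun ω hω => by simpa using fun a => hω (f g hg ω a)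
    rw [card_compl, hs, Nat.card_eq_fintype_card] at h3
    omega
  rwa [Subgroup.card_bot, one_mul, hs] at e

theorem basep {μ : ℕ} (h : MD X Ω μ) (h1 : 1 ≤ μ) : Nat.card X ≤ Nat.card Ω ^ (Nat.card Ω + 1 - μ) :=
  (basec h h1).trans (Nat.descFactorial_le_pow _ _)

theorem dblc [FaithfulSMul X Ω] (T : IsMultiplyPretransitive X Ω 2) {a b c : Ω} (ab : a ≠ b) (ac : a ≠ c)
    (bc : b ≠ c) (h : ∀ g : X, g • a = a → g • b = b → g • c = c) :
    Nat.card X ≤ Nat.card Ω ^ (Nat.log 2 (Nat.card Ω) + 1) := by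
  classical
  have T2 := fun x y (e : x ≠ y) => is_two_pretransitive_iff.1 T ab e
  choose! γ hγ using T2
  have uq : ∀ (g : X) {x y}, g • a = x → g • b = y → γ x y • c = g • c := by
    rintro g _ _ rfl rfl
    obtain ⟨e1, e2⟩ := hγ _ _ ((MulAction.injective g).ne ab)
    rw [← inv_smul_eq_iff, ← mul_smul]
    exact h _ (by rw [mul_smul, e1, inv_smul_smul]) (by rw [mul_smul, e2, inv_smul_smul])
  have eqv : ∀ (g : X) {x y}, x ≠ y → γ (g • x) (g • y) • c = g • γ x y • c := fun g x y e => by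
    rw [← mul_smul]
    exact uq _ (by rw [mul_smul, (hγ _ _ e).1]) (by rw [mul_smul, (hγ _ _ e).2])
  have n1 : ∀ {x y}, x ≠ y → γ x y • c ≠ x := fun e f =>
    ac ((MulAction.injective _) ((hγ _ _ e).1.trans f.symm))
  have n2 : ∀ {x y}, x ≠ y → γ x y • c ≠ y := fun e f =>
    bc ((MulAction.injective _) ((hγ _ _ e).2.trans f.symm))
  have inj : ∀ (x : Ω) (τ : {y // y ≠ x} → {y // y ≠ x}),
      (∀ (g : X) y y', g • x = x → g • y.1 = y'.1 → g • (τ y).1 = (τ y').1) → Function.Injective τ :=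
    fun x τ e => Finite.injective_iff_surjective.2 fun z => by
      obtain ⟨g, e1, e2⟩ := is_two_pretransitive_iff.1 T (τ z).2.symm z.2.symm
      exact ⟨⟨g • z.1, fun f => z.2 (MulAction.injective g (f.trans e1.symm))⟩,
        Subtype.ext ((e g z _ e1 rfl).symm.trans e2)⟩
  have i2 : ∀ {x y y'}, x ≠ y → x ≠ y' → γ x y • c = γ x y' • c → y = y' := fun {x y y'} e e' f =>
    congrArg Subtype.val (inj x (fun y => ⟨γ x y • c, n1 y.2.symm⟩) (fun g y y' e1 e2 => by
      simp only; rw [← eqv g y.2.symm, e1, e2]) (a₁ := ⟨y, e.symm⟩) (a₂ := ⟨y', e'.symm⟩) (Subtype.ext f))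
  have i1 : ∀ {x y y'}, y ≠ x → y' ≠ x → γ y x • c = γ y' x • c → y = y' := fun {x y y'} e e' f =>
    congrArg Subtype.val (inj x (fun y => ⟨γ y x • c, n2 y.2⟩) (fun g y y' e1 e2 => by
      simp only; rw [← eqv g y.2, e1, e2]) (a₁ := ⟨y, e⟩) (a₂ := ⟨y', e'⟩) (Subtype.ext f))
  have := Fintype.ofFinite Ω
  have key : ∀ j : ℕ, ∃ H : Subgroup X, Nat.card X ≤ Nat.card H * Nat.card Ω ^ j ∧
      (H = ⊥ ∨ 2 ^ j ≤ (univ.filter fun ω : Ω => ∀ g ∈ H, g • ω = ω).card + 1) := fun j => by
    induction j with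
    | zero => exact ⟨⊤, by simp, Or.inr (by simp)⟩
    | succ j ih =>
      obtain ⟨H, e, f⟩ := ih
      by_cases hb : H = ⊥
      · exact ⟨H, e.trans (Nat.mul_le_mul_left _ (Nat.pow_le_pow_right (Nat.card_pos_iff.2 ⟨⟨a⟩, inferInstance⟩)
          (by omega))), Or.inl hb⟩
      replace f := f.resolve_left hb
      obtain ⟨ω, g, hg, hω⟩ : ∃ ω : Ω, ∃ g ∈ H, g • ω ≠ ω := by
        by_contra! e
        exact hb (eq_bot_iff.2 fun g hg => eq_of_smul_eq_smul (α := Ω) fun ω => by rw [e ω g hg, one_smul])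
      refine ⟨H ⊓ stabilizer X ω, e.trans (by rw [pow_succ', ← mul_assoc]; exact Nat.mul_le_mul_right _ (stepc H ω)),
        Or.inr ?_⟩
      generalize hF : (univ.filter fun ω : Ω => ∀ g ∈ H, g • ω = ω) = F at f
      have mF : ∀ β, β ∈ F ↔ ∀ g ∈ H, g • β = β := fun β => by simp [← hF]
      have nF : ∀ β ∈ F, β ≠ ω := by rintro _ hβ rfl; exact hω ((mF _).1 hβ g hg)
      have sub : insert ω (F ∪ F.image fun β => γ β ω • c) ⊆
          univ.filter fun v : Ω => ∀ g ∈ H ⊓ stabilizer X ω, g • v = v := fun v hv => by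
        simp only [mem_insert, mem_union, mem_image] at hv
        refine mem_filter.2 ⟨mem_univ _, fun x hx => ?_⟩
        rcases hv with rfl | hv | ⟨β, hβ, rfl⟩
        · exact hx.2
        · exact (mF _).1 hv x hx.1
        · rw [← eqv x (nF β hβ), (mF _).1 hβ x hx.1, show x • ω = ω from hx.2]
      have := card_le_card sub
      rw [card_insert_of_notMem, card_union_of_disjoint, card_image_of_injOn] at this
      · rw [pow_succ]; omega
      · exact fun β hβ β' hβ' e => i1 (nF β hβ) (nF β' hβ') e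
      · refine disjoint_left.2 fun v hv hv' => ?_
        obtain ⟨β, hβ, rfl⟩ := mem_image.1 hv'
        have e1 := (mF _).1 hβ g hg
        refine hω (i2 (x := β) (fun e => nF β hβ (MulAction.injective g (e1.trans e))) (nF β hβ) ?_)
        conv_lhs => rw [← e1]
        rw [eqv g (nF β hβ), (mF _).1 hv g hg]
      · simp only [mem_union, mem_image, not_or, not_exists, not_and]
        exact ⟨fun e => nF ω e rfl, fun β hβ => n2 (nF β hβ)⟩
  obtain ⟨H, e, f⟩ := key (Nat.log 2 (Nat.card Ω) + 1)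
  obtain rfl : H = ⊥ := f.elim id fun f => eq_bot_iff.2 fun g hg => eq_of_smul_eq_smul (α := Ω) fun ω => by
    have h1 := Nat.lt_pow_succ_log_self one_lt_two (Nat.card Ω)
    have h2 := (card_eq_iff_eq_univ _).1 (le_antisymm (card_le_univ
      (univ.filter fun ω : Ω => ∀ g ∈ H, g • ω = ω)) (by rw [← Nat.card_eq_fintype_card]; omega))
    rw [(mem_filter.1 (h2.ge (mem_univ ω))).2 g hg, one_smul]
  rwa [Subgroup.card_bot, one_mul] at e

theorem sumc [DecidableEq Ω] (Y : Subgroup X) [Fintype Y] (W A B : Finset Ω) (hA : A ⊆ W) (hB : B ⊆ W)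
    (hW : ∀ g ∈ Y, ∀ w ∈ W, g • w ∈ W) (tr : ∀ v ∈ W, ∀ w ∈ W, ∃ g ∈ Y, g • v = w) :
    (∑ g : Y, (A.filter fun a => g.1 • a ∈ B).card) * W.card = A.card * B.card * Fintype.card Y := by
  classical
  have N : ∀ a ∈ A, ∀ b ∈ W, (univ.filter fun g : Y => g.1 • a = b).card * W.card = Fintype.card Y :=
    fun a ha b hb => by
      rw [mul_comm, ← smul_eq_mul, ← sum_const, ← card_univ,
        card_eq_sum_card_fiberwise (s := univ) (f := fun g : Y => g.1 • a) (t := W) fun g _ => hW _ g.2 a (hA ha)]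
      refine sum_congr rfl fun b' hb' => ?_
      obtain ⟨h, hh, rfl⟩ := tr b hb b' hb'
      exact card_bijective _ (Group.mulLeft_bijective (⟨h, hh⟩ : Y)) fun g => by simp [mul_smul]
  have : ∀ g : Y, (A.filter fun a => g.1 • a ∈ B).card = ∑ a ∈ A, ∑ b ∈ B, if g.1 • a = b then 1 else 0 :=
    fun g => by rw [card_filter]; exact sum_congr rfl fun a _ => by simp
  simp only [this]
  rw [sum_comm, sum_mul, mul_assoc, ← smul_eq_mul, ← sum_const]
  refine sum_congr rfl fun a ha => ?_
  rw [sum_comm, sum_mul, ← smul_eq_mul, ← sum_const]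
  exact sum_congr rfl fun b hb => by rw [← card_filter, N a ha b (hB hb)]

end abstract

variable {α : Type} [Fintype α] [DecidableEq α]

theorem bo2 (G : Subgroup (Perm α)) (hA : ¬ alternatingGroup α ≤ G) (T : IsMultiplyPretransitive G α 2) {μ : ℕ}
    (h : ∀ k, 4 ≤ k → k < μ → (k - 1) * (k - 2) < (Nat.card α - k) * ((k + 2) / 3 - 1)) : MD G α μ := by
  classical
  have hG := isPreprimitive_of_is_two_pretransitive T
  have h4 : ∀ g : G, g ≠ 1 → 4 ≤ g.1.support.card := fun g g1 => by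
    by_contra! c
    exact hA (H3.alternating_le_of_support_le_three G hG g.2 (fun e => g1 (Subtype.ext e)) (by omega))
  intro g g1
  rw [sp_eq]
  by_contra! c
  obtain ⟨x, x1, mn⟩ := (measure fun g : G => g.1.support.card).wf.has_min {g | g ≠ 1} ⟨g, g1⟩
  replace mn : ∀ g : G, g ≠ 1 → x.1.support.card ≤ g.1.support.card := fun g e => not_lt.1 (mn g e)
  have k4 := h4 x x1
  have hk := h _ k4 ((mn g g1).trans_lt c)
  rw [Nat.card_eq_fintype_card] at hk
  obtain ⟨a, ha⟩ := card_pos.1 (show 0 < x.1.support.card by omega)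
  have ha' := Perm.mem_support.1 ha
  have hb : x.1 a ∈ x.1.support := Perm.apply_mem_support.2 ha
  have := Fintype.ofFinite (stabilizer G a)
  have hW : ∀ g ∈ stabilizer G a, ∀ w ∈ univ.erase a, g • w ∈ univ.erase a := fun g hg w hw => by
    simp only [mem_erase, mem_univ, and_true] at hw ⊢
    exact fun e => hw (MulAction.injective g (e.trans (show g • a = a from hg).symm))
  have tr : ∀ v ∈ univ.erase a, ∀ w ∈ univ.erase a, ∃ g ∈ stabilizer G a, g • v = w := fun v hv w hw => by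
    simp only [mem_erase, mem_univ, and_true] at hv hw
    obtain ⟨g, f1, f2⟩ := is_two_pretransitive_iff.1 T hv.symm hw.symm
    exact ⟨g, f1, f2⟩
  have e1 := sumc (X := G) (stabilizer G a) (univ.erase a) ((x.1.support.erase a).erase (x.1 a))
    (x.1.support.erase a) ((erase_subset _ _).trans (erase_subset_erase _ (subset_univ _)))
    (erase_subset_erase _ (subset_univ _)) hW tr
  have e2 := sumc (X := G) (stabilizer G a) (univ.erase a) {x.1 a} x.1.supportᶜ (by simpa using ha')
    (fun v hv => mem_erase.2 ⟨by rintro rfl; exact mem_compl.1 hv ha, mem_univ _⟩) hW tr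
  rw [card_erase_of_mem (mem_erase.2 ⟨ha', hb⟩), card_erase_of_mem ha] at e1
  rw [card_singleton, one_mul, card_compl] at e2
  have le : ∑ g : stabilizer G a, (({x.1 a} : Finset α).filter fun v => g.1 • v ∈ x.1.supportᶜ).card *
      ((x.1.support.card + 2) / 3 - 1) ≤ ∑ g : stabilizer G a, (((x.1.support.erase a).erase
      (x.1 a)).filter fun v => g.1 • v ∈ x.1.support.erase a).card := sum_le_sum fun ⟨z, z1⟩ _ => by
    replace z1 : z.1 a = a := z1
    rw [filter_singleton]
    split_ifs with z2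
    swap; · simp
    replace z2 : x.1 (z.1 (x.1 a)) = z.1 (x.1 a) := by simpa [Subgroup.smul_def] using z2
    have s1 := mn (x * (z⁻¹ * x * z) * x⁻¹ * (z⁻¹ * x * z)⁻¹) fun f => by
      rw [mul_inv_eq_one, mul_inv_eq_iff_eq_mul] at f
      have := congrArg (fun g : G => g.1 a) f
      simp only [Subgroup.coe_mul, Subgroup.coe_inv, Perm.mul_apply, z1, z2] at this
      rw [show z.1⁻¹ (z.1 (x.1 a)) = x.1 a by simp, EmbeddingLike.apply_eq_iff_eq, Perm.inv_eq_iff_eq, z1] at this
      exact ha' this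
    have s2 := supp_comm x.1 (z⁻¹ * x * z).1
    have s3 : x.1.support ∩ (z⁻¹ * x * z).1.support ⊆ insert a (((x.1.support.erase a).erase
        (x.1 a)).filter fun v => z • v ∈ x.1.support.erase a) := fun v hv => by
      rw [mem_inter, Perm.mem_support (f := (z⁻¹ * x * z).1)] at hv
      have v1 : x.1 (z.1 v) ≠ z.1 v := fun f => hv.2 (by simp [f])
      refine mem_insert.2 (or_iff_not_imp_left.2 fun v2 => mem_filter.2
        ⟨mem_erase.2 ⟨by rintro rfl; exact v1 z2, mem_erase.2 ⟨v2, hv.1⟩⟩, ?_⟩)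
      exact mem_erase.2 ⟨fun f => v2 (z.1.injective (f.trans z1.symm)), Perm.mem_support.2 v1⟩
    have s4 := (card_le_card s3).trans (card_insert_le _ _)
    simp only [Subgroup.coe_mul, Subgroup.coe_inv, card_singleton] at s1 s2 s4 ⊢
    omega
  rw [← sum_mul] at le
  have l2 := Nat.mul_le_mul_right (univ.erase a).card le
  rw [e1, mul_right_comm, e2, mul_right_comm] at l2
  have l3 := Nat.le_of_mul_le_mul_right l2 Fintype.card_pos
  rw [Nat.sub_sub, mul_comm (_ - (1 + 1))] at l3
  exact absurd hk (not_lt.2 l3)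

end Cfsg.Agent.H4.Ch
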