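import Cfsg.Agent.H4.Ch.Bo
import Cfsg.Agent.H6.Ch.Blk
import Cfsg.Agent.H9.Ch.NI0

/-! The imprimitive case of the order bound, from its arithmetic statement. -/

set_option autoImplicit false
set_option linter.unusedSectionVars false
set_option linter.unusedVariables false

namespace Cfsg.Agent.H4.Ch

open MulAction Cfsg.Agent.H3.Ch Cfsg.Agent.H6.Ch Cfsg.Agent.H9.Ch

variable {J Ω : Type} [Group J] [Finite J] [MulAction J Ω] [Finite Ω]

theorem stab_one {μ : ℕ} (h : MD J Ω μ) (hμ : Nat.card Ω ≤ μ) (α : Ω) : Nat.card (stabilizer J α) = 1 := by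
  rw [Subgroup.card_eq_one, eq_bot_iff]
  intro g hg
  by_contra g1
  have h1 := h g g1
  have h2 : sp Ω g < Nat.card Ω := by
    rw [sp, ← Set.ncard_univ]
    exact Set.ncard_lt_ncard (Set.ssubset_univ_iff.2 fun e => (e.ge (Set.mem_univ α)) hg)
  omega

theorem blk' {m : ℕ} (h2 : IsMultiplyPretransitive J Ω 2) (hm : Nat.card Ω = m + 1) (α : Ω)
    (np : ¬ IsPreprimitive (stabilizer J α) (SubMulAction.ofStabilizer J α)) :
    ∃ a b, 2 ≤ a ∧ 2 ≤ b ∧ a * b = m ∧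
      (a = 2 → ∃ β γ : Ω, α ≠ β ∧ α ≠ γ ∧ β ≠ γ ∧ ∀ g : J, g • α = α → g • β = β → g • γ = γ) ∧
      (∀ μ e c, MD J Ω μ → e ≤ b → c ≤ a → e * a + c < μ → (e = b → c = 0) →
        Nat.card (stabilizer J α) * (e.factorial * c.factorial) ≤ a.factorial ^ (b - e) * b.factorial) ∧
      (∀ j ≤ b, Sep J Ω (j + 1) (j * a)) ∧
      ∀ k s, Sep J Ω k s → 2 * a * s ≤ m + 1 → ∃ s', Sep J Ω (k + 1) s' ∧ a ∣ s' ∧ s' ≤ a * s ∧
        s * a * (2 * a - 1) ≤ s' * (3 * a - 2) := by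
  obtain ⟨a, b, a2, b2, ab, d, B1, B2, B3⟩ := blk h2 hm α np
  refine ⟨a, b, a2, b2, ab, d, fun μ e c md eb ca l z => ?_, B2, B3⟩
  have k : ∀ e, e ≤ b → e * a < μ → Nat.card (stabilizer J α) * e.factorial ≤ a.factorial ^ (b - e) * b.factorial :=
    fun e eb l => by
      rcases eb.eq_or_lt with rfl | eb
      · rw [stab_one md (by rw [hm, ← ab, mul_comm]; omega)]; simp
      · simpa using B1 μ e 0 md eb (by omega) l
  rcases eb.eq_or_lt with rfl | eb
  · rw [z rfl] at l ⊢; simpa using k e le_rfl l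
  rcases ca.eq_or_lt with rfl | ca
  swap; · exact B1 μ e c md eb ca l
  have := k (e + 1) eb (by rw [add_mul, one_mul]; exact l)
  rw [show b - e = b - (e + 1) + 1 by omega, pow_succ, mul_right_comm, ← mul_assoc]
  exact Nat.mul_le_mul_right _ ((Nat.mul_le_mul_left _ (Nat.factorial_le (Nat.le_succ e))).trans this)

/-- the imprimitive case: `J` is doubly transitive of degree `n + 2 - t` -/
theorem impr [FaithfulSMul J Ω] (H : NumI) {n t : ℕ} (n5 : 5 ≤ n) (t2 : 2 ≤ t) (tn : t + 3 ≤ n)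
    (hM : ∀ r < t, ¬ Mil n r) (hN : Nat.card Ω + t = n + 2) (h2 : IsMultiplyPretransitive J Ω 2) (α : Ω)
    (np : ¬ IsPreprimitive (stabilizer J α) (SubMulAction.ofStabilizer J α))
    (md : ∀ μ, Mu n t μ ∨ Bo n μ → MD J Ω μ)
    (pot : ∀ k s, Sep J Ω k s → 0 < s → s < Nat.card Ω →
      2 * (s : ℝ) * ((Nat.card Ω : ℝ) - s) * Real.log (Nat.card J) ≤
        k * (Nat.card Ω : ℝ) * ((Nat.card Ω : ℝ) - 1) * psi (Nat.card Ω)) :
    n.descFactorial (t - 2) * Nat.card J ≤ 4 ^ n := by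
  obtain ⟨m, hm⟩ : ∃ m, Nat.card Ω = m + 1 := ⟨Nat.card Ω - 1, by omega⟩
  obtain ⟨a, b, a2, b2, ab, d, B1, B2, B3⟩ := blk' h2 hm α np
  have : IsPretransitive J Ω := isPretransitive_of_is_two_pretransitive
  refine H n t _ a b (Nat.card (stabilizer J α)) _ (Sep J Ω) n5 t2 tn hM hN a2 b2 (by omega) ?_
    (fun μ e c _ h => B1 μ e c (md μ h)) (fun e => ?_) (fun j l => B2 j l.le) (hm ▸ B3) pot
  · rw [← index_stabilizer_of_transitive J α, Subgroup.index_mul_card]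
  · obtain ⟨β, γ, h1, h3, h4, h5⟩ := d e
    exact dblc h2 h1 h3 h4 h5

end Cfsg.Agent.H4.Ch
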