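import Cfsg.Agent.H1.Ch.Sy
import Cfsg.Agent.H2.NU0

/-! The Sylow bound for the order of a simply primitive group. -/

set_option autoImplicit false

namespace Cfsg.Agent.H4.Ch

open Equiv Equiv.Perm Subgroup Finset MulAction H3.Ch H1.Ch H2.NU

theorem le_prod (n m : ℕ) (u : ℕ → ℕ) (hn : n ∣ m.factorial) (hu : ∀ p, p.Prime → p ≤ m → n.factorization p ≤ u p) :
    n ≤ ∏ p ∈ (Finset.range (m + 1)).filter Nat.Prime, p ^ u p := by
  have n0 : n ≠ 0 := ne_zero_of_dvd_ne_zero m.factorial_ne_zero hn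
  have hs : n.primeFactors ⊆ (Finset.range (m + 1)).filter Nat.Prime := fun p hp => by
    have h1 := Nat.prime_of_mem_primeFactors hp
    have h2 := (h1.dvd_factorial).1 ((Nat.dvd_of_mem_primeFactors hp).trans hn)
    exact mem_filter.2 ⟨mem_range.2 (by omega), h1⟩
  conv_lhs => rw [← Nat.factorization_prod_pow_eq_self n0, Finsupp.prod, Nat.support_factorization]
  refine le_trans (prod_le_prod' fun p hp => ?_)
    (prod_le_prod_of_subset_of_one_le' hs fun p hp _ => Nat.one_le_pow _ _ (mem_filter.1 hp).2.pos)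
  have := mem_filter.1 (hs hp)
  exact Nat.pow_le_pow_right this.2.pos (hu p this.2 (by have := mem_range.1 this.1; omega))

theorem ceil_le {μ k p : ℕ} (hp : 0 < p) (h : μ ≤ k * p) : (μ + p - 1) / p * p ≤ k * p := by
  refine Nat.mul_le_mul_right _ ?_
  rw [← Nat.lt_succ_iff, Nat.div_lt_iff_lt_mul hp, Nat.succ_mul]
  omega

theorem sylm {X Ω : Type} [Group X] [Finite X] [MulAction X Ω] [Finite Ω] [FaithfulSMul X Ω]
    [hX : IsPreprimitive X Ω] (h2 : ¬ IsMultiplyPretransitive X Ω 2) {d μ : ℕ}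
    (hd : ∀ u v : Ω, u ≠ v → d ≤ {z : Ω | ∀ x : X, x • z = z → x • u ≠ v}.ncard) (md : MD X Ω μ) :
    Nat.card X ≤ Sy (Nat.card Ω) d μ := by
  classical
  haveI := Fintype.ofFinite Ω
  set H := (toPermHom X Ω).range with hH
  have cH : Nat.card X = Nat.card H :=
    Nat.card_congr (MonoidHom.ofInjective (f := toPermHom X Ω) toPerm_injective).toEquiv
  have hm : ∀ g : X, toPermHom X Ω g ∈ Cl2 H := fun g => le_Cl2 H ⟨g, rfl⟩
  haveI hC : IsPreprimitive (Cl2 H) Ω := by
    haveI : IsPretransitive (Cl2 H) Ω := ⟨fun a b => by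
      obtain ⟨g, hg⟩ := exists_smul_eq X a b
      exact ⟨⟨_, hm g⟩, hg⟩⟩
    refine ⟨fun {B} hB => hX.isTrivialBlock_of_isBlock ?_⟩
    rw [isBlock_iff_smul_eq_or_disjoint] at hB ⊢
    intro g
    exact hB ⟨_, hm g⟩
  have h2' : ¬ IsMultiplyPretransitive (Cl2 H) Ω 2 := by
    intro h
    apply h2
    rw [is_two_pretransitive_iff] at h ⊢
    intro a b c d hab hcd
    obtain ⟨y, h1, h3⟩ := h hab hcd
    obtain ⟨_, ⟨g, rfl⟩, k1, k2⟩ := y.2 a b
    exact ⟨g, k1.trans h1, k2.trans h3⟩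
  have hw : ∀ y ∈ Cl2 H, y ≠ 1 → d ≤ y.support.card := fun y hy y1 => by
    obtain ⟨a, ha⟩ : ∃ a, a ≠ y a := by
      by_contra! e
      exact y1 (Equiv.ext fun a => (e a).symm)
    refine (hd a _ ha).trans ?_
    rw [← Set.ncard_coe_finset]
    refine Set.ncard_le_ncard fun z hz => mem_coe.2 (mem_support.2 fun e => ?_)
    obtain ⟨_, ⟨g, rfl⟩, k1, k2⟩ := hy z a
    exact hz g (k1.trans e) k2
  have hμ : ∀ y ∈ H, y ≠ 1 → μ ≤ y.support.card := by
    rintro _ ⟨g, rfl⟩ y1
    refine (md g fun e => y1 (by rw [e, map_one])).trans_eq ?_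
    rw [sp, ← Set.ncard_coe_finset]
    congr 1
    ext a
    simp
  rw [cH, Sy]
  apply le_prod
  · have := card_subgroup_dvd_card H
    rwa [Nat.card_perm] at this
  intro p hp hpm
  rw [Uq, Nat.card_eq_fintype_card (α := Ω)] at *
  split_ifs with e
  · obtain ⟨c, h1, h3, -⟩ := syl0 H hp p 0 (fun y _ y1 yp => by
      obtain ⟨k, k1, k2, -⟩ := card_supp hp y1 yp
      rw [k2]; exact Nat.le_mul_of_pos_left _ k1) (fun _ _ _ _ => Nat.zero_le _)
    have : c ≤ 1 := by
      rw [← e] at h3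
      exact Nat.le_of_mul_le_mul_right (by omega) hp.pos
    omega
  · obtain ⟨c, h1, h3, h4⟩ := syl0 H hp (max (2 * p) ((d + p - 1) / p * p)) ((μ + p - 1) / p * p) (fun y hy y1 yp => by
      obtain ⟨k, k1, k2, k3⟩ := card_supp hp y1 yp
      have p2 := hp.two_le
      have k4 : 2 ≤ k := by
        by_contra e'
        have k5 : k = 1 := by omega
        apply h2'
        refine hC.is_two_pretransitive (s := (y.support : Set Ω)ᶜ) (n := Fintype.card Ω - p - 1) ?_ ?_
          (isPretransitive_of_isCycle_mem (k3 k5) hy)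
        · rw [← Finset.coe_compl, Set.ncard_coe_finset, card_compl, k2, k5]; omega
        · rw [Nat.card_eq_fintype_card]; omega
      have k8 := hw y hy y1
      rw [k2] at k8 ⊢
      exact max_le (Nat.mul_le_mul_right _ k4) (ceil_le hp.pos k8)) (fun y hy y1 yp => by
      obtain ⟨k, k1, k2, k3⟩ := card_supp hp y1 yp
      have k8 := hμ y hy y1
      rw [k2] at k8 ⊢
      exact ceil_le hp.pos k8)
    have W0 : 0 < max (2 * p) ((d + p - 1) / p * p) := lt_max_of_lt_left (by have := hp.pos; omega)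
    refine h1.trans (Nat.add_le_add_left (le_min ((Nat.le_div_iff_mul_le W0).2 h3)
      ((Nat.le_div_iff_mul_le W0).2 ?_)) _)
    rcases c with _ | c
    · simp
    · rw [Nat.add_sub_cancel] at h4
      rw [Nat.succ_mul]; omega

end Cfsg.Agent.H4.Ch
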